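import Mathlib
import Cfsg.Agent.Lib.Helper58.UPair.Defs
import Cfsg.Agent.Lib.Helper45.HermBasic

set_option autoImplicit false

namespace Cfsg.Agent.Lib.Helper27.UPair

open Cfsg.Agent.Lib.Helper58.UPair Cfsg.Agent.Lib.Helper45

universe u

/-- the two members of a decomposition into two subspaces are complementary -/
theorem isCompl_of_dec {F : Type u} [Field F] {n m : ℕ} {D : Fin 2 → Submodule F (Fin n → F)}
    (h : Cfsg.Geo.IsMDecomposition m D) : IsCompl (D 0) (D 1) := by
  constructor
  · exact h.indep.pairwiseDisjoint (by decide : (0 : Fin 2) ≠ 1)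
  · rw [codisjoint_iff, eq_top_iff, ← h.iSup_eq_top]
    apply iSup_le
    intro i
    fin_cases i
    · exact le_sup_left
    · exact le_sup_right

/-- the right kernel of `h(u, ·)` as a submodule -/
def rightKer {F : Type u} [Field F] [Fintype F] {q : ℕ} (hF : Fintype.card F = q ^ 2) (n : ℕ)
    (u : Fin n → F) : Submodule F (Fin n → F) where
  carrier := {v | Cfsg.hermForm n F q u v = 0}
  add_mem' := by
    intro a b ha hb
    have ha' : Cfsg.hermForm n F q u a = 0 := ha
    have hb' : Cfsg.hermForm n F q u b = 0 := hb
    show Cfsg.hermForm n F q u (a + b) = 0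
    rw [herm_add_right hF, ha', hb', add_zero]
  zero_mem' := by
    have hq0 : q ≠ 0 := by
      have := two_le_q hF
      omega
    show Cfsg.hermForm n F q u 0 = 0
    simp [herm_def, hq0]
  smul_mem' := by
    intro c v hv
    have hv' : Cfsg.hermForm n F q u v = 0 := hv
    show Cfsg.hermForm n F q u (c • v) = 0
    rw [herm_smul_right, hv', mul_zero]

theorem mem_rightKer {F : Type u} [Field F] [Fintype F] {q : ℕ} (hF : Fintype.card F = q ^ 2)
    (n : ℕ) (u v : Fin n → F) : v ∈ rightKer hF n u ↔ Cfsg.hermForm n F q u v = 0 := Iff.rfl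

/-- the hermitian form is non-degenerate -/
theorem eq_zero_of_rightKer_top {F : Type u} [Field F] [Fintype F] {q : ℕ}
    (hF : Fintype.card F = q ^ 2) (n : ℕ) (u : Fin n → F) (h : rightKer hF n u = ⊤) : u = 0 := by
  classical
  have hq0 : q ≠ 0 := by
    have := two_le_q hF
    omega
  funext i
  have h1 : (Pi.single i 1 : Fin n → F) ∈ rightKer hF n u := by
    rw [h]
    exact Submodule.mem_top
  rw [mem_rightKer, herm_single_right hq0] at h1
  exact h1

/-- **[DUALB]** -/
theorem pkgDualBasis : PkgDualBasis.{u} := by
  intro F _ _ q n m D hF hD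
  obtain ⟨hdec, hts⟩ := hD
  classical
  have hcompl := isCompl_of_dec hdec
  have hfr1 : Module.finrank F (D 1) = m := hdec.finrank_eq 1
  have hfr0 : Module.finrank F (D 0) = m := hdec.finrank_eq 0
  let f : Module.Basis (Fin m) F (D 1) := Module.finBasisOfFinrankEq F (D 1) hfr1
  let Φ : D 0 →ₗ[F] (Fin m → F) :=
    { toFun := fun u j => Cfsg.hermForm n F q (u : Fin n → F) (f j : Fin n → F)
      map_add' := by
        intro u u'
        funext j
        simp [herm_add_left]
      map_smul' := by
        intro c u
        funext j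
        simp [herm_smul_left] }
  have hΦ : ∀ (u : D 0) (j : Fin m),
      Φ u j = Cfsg.hermForm n F q (u : Fin n → F) (f j : Fin n → F) := fun _ _ => rfl
  have hΦinj : Function.Injective Φ := by
    rw [← LinearMap.ker_eq_bot, LinearMap.ker_eq_bot']
    intro u hu
    have h0 : D 0 ≤ rightKer hF n (u : Fin n → F) := by
      intro v hv
      exact hts 0 _ u.2 _ hv
    have h1 : D 1 ≤ rightKer hF n (u : Fin n → F) := by
      intro v hv
      have hsum := f.sum_repr ⟨v, hv⟩
      have hv' : v = ∑ j, (f.repr ⟨v, hv⟩ j) • (f j : Fin n → F) := by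
        have := congrArg (Subtype.val : D 1 → (Fin n → F)) hsum
        simp only [Submodule.coe_sum, Submodule.coe_smul] at this
        exact this.symm
      rw [hv']
      apply Submodule.sum_mem
      intro j _
      apply Submodule.smul_mem
      rw [mem_rightKer, ← hΦ, hu]
      rfl
    have htop : rightKer hF n (u : Fin n → F) = ⊤ := by
      rw [eq_top_iff, ← hcompl.sup_eq_top]
      exact sup_le h0 h1
    apply Subtype.ext
    exact eq_zero_of_rightKer_top hF n _ htop
  have : FiniteDimensional F (D 0) := inferInstance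
  let E : D 0 ≃ₗ[F] (Fin m → F) :=
    LinearMap.linearEquivOfInjective Φ hΦinj (by rw [hfr0, Module.finrank_fin_fun])
  let e : Module.Basis (Fin m) F (D 0) := (Pi.basisFun F (Fin m)).map E.symm
  have he : ∀ i j, Cfsg.hermForm n F q (e i : Fin n → F) (f j : Fin n → F)
      = if i = j then 1 else 0 := by
    intro i j
    have h1 : Φ (e i) = Pi.single i 1 := by
      have h2 := E.apply_symm_apply (Pi.basisFun F (Fin m) i)
      rw [LinearMap.linearEquivOfInjective_apply] at h2
      rw [Pi.basisFun_apply] at h2
      have hei : e i = E.symm (Pi.single i 1) := by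
        show ((Pi.basisFun F (Fin m)).map E.symm) i = _
        rw [Module.Basis.map_apply, Pi.basisFun_apply]
      rw [hei]
      exact h2
    have h3 := congrFun h1 j
    rw [hΦ] at h3
    rw [h3, Pi.single_apply]
    simp only [eq_comm]
  refine ⟨(e.prod f).map (Submodule.prodEquivOfIsCompl (D 0) (D 1) hcompl), ?_, ?_, ?_⟩
  · intro i
    rw [Module.Basis.map_apply, Submodule.coe_prodEquivOfIsCompl']
    simp
  · intro i
    rw [Module.Basis.map_apply, Submodule.coe_prodEquivOfIsCompl']
    simp
  · intro i j
    rw [Module.Basis.map_apply, Module.Basis.map_apply, Submodule.coe_prodEquivOfIsCompl',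
      Submodule.coe_prodEquivOfIsCompl']
    simp only [Module.Basis.prod_apply_inl_fst, Module.Basis.prod_apply_inl_snd,
      Module.Basis.prod_apply_inr_fst, Module.Basis.prod_apply_inr_snd, ZeroMemClass.coe_zero,
      add_zero, zero_add]
    exact he i j

end Cfsg.Agent.Lib.Helper27.UPair
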