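import Mathlib
import Cfsg.Agent.Lib.Helper58.UPair.Defs
import Cfsg.Agent.Lib.Helper45.HermStab
import Cfsg.Agent.Lib.Helper45.HermGU
import Cfsg.Agent.Lib.Helper27.UPair.DualB

set_option autoImplicit false
set_option linter.unusedSectionVars false

namespace Cfsg.Agent.Lib.Helper27.UPair

open Cfsg.Agent.Lib.Helper58.UPair Cfsg.Agent.Lib.Helper45
open Matrix

universe u

section

variable {F : Type u} [Field F] [Fintype F] {q : ℕ}

/-- the vectors `e_{g(inl i)} + μ e_{g(inr i)}` -/
def hypVec {n k : ℕ} (g : Fin k ⊕ Fin k → Fin n) (μ : F) (i : Fin k) : Fin n → F :=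
  Pi.single (g (Sum.inl i)) 1 + μ • Pi.single (g (Sum.inr i)) 1

theorem hypVec_apply {n k : ℕ} (g : Fin k ⊕ Fin k → Fin n) (μ : F) (i : Fin k) (j : Fin n) :
    hypVec g μ i j
      = (if j = g (Sum.inl i) then 1 else 0) + μ * (if j = g (Sum.inr i) then 1 else 0) := by
  simp [hypVec, Pi.single_apply]

theorem hypVec_herm (hF : Fintype.card F = q ^ 2) {n k : ℕ} (g : Fin k ⊕ Fin k → Fin n)
    (hg : Function.Injective g) (μ : F) (hμ : μ ^ (q + 1) = -1) (i j : Fin k) :
    Cfsg.hermForm n F q (hypVec g μ i) (hypVec g μ j) = 0 := by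
  have hq0 : q ≠ 0 := by
    have := two_le_q hF
    omega
  rw [show hypVec g μ j = Pi.single (g (Sum.inl j)) 1 + μ • Pi.single (g (Sum.inr j)) 1 from rfl,
    herm_add_right hF, herm_smul_right, herm_single_right hq0, herm_single_right hq0,
    hypVec_apply, hypVec_apply]
  have h1 : g (Sum.inl j) ≠ g (Sum.inr i) := fun h => by simpa using hg h
  have h2 : g (Sum.inr j) ≠ g (Sum.inl i) := fun h => by simpa using hg h
  rw [if_neg h1, if_neg h2]
  by_cases hij : i = j
  · subst hij
    have h3 : μ ^ q * μ = -1 := by rw [← pow_succ, hμ]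
    simp only [if_true, mul_zero, add_zero, zero_add, mul_one]
    rw [h3]
    ring
  · have h3 : g (Sum.inl j) ≠ g (Sum.inl i) := fun h => hij (by simpa using (hg h).symm)
    have h4 : g (Sum.inr j) ≠ g (Sum.inr i) := fun h => hij (by simpa using (hg h).symm)
    rw [if_neg h3, if_neg h4]
    ring

/-- `c ↦ Σ c_i (e_{g(inl i)} + μ e_{g(inr i)})` -/
def hypMap {n k : ℕ} (g : Fin k ⊕ Fin k → Fin n) (μ : F) : (Fin k → F) →ₗ[F] (Fin n → F) where
  toFun c := ∑ i, c i • hypVec g μ i
  map_add' := by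
    intro c d
    simp [add_smul, Finset.sum_add_distrib]
  map_smul' := by
    intro a c
    simp [Finset.smul_sum, smul_smul]

theorem hypMap_def {n k : ℕ} (g : Fin k ⊕ Fin k → Fin n) (μ : F) (c : Fin k → F) :
    hypMap g μ c = ∑ i, c i • hypVec g μ i := rfl

theorem hypMap_apply_inl {n k : ℕ} (g : Fin k ⊕ Fin k → Fin n) (hg : Function.Injective g)
    (μ : F) (c : Fin k → F) (i : Fin k) : hypMap g μ c (g (Sum.inl i)) = c i := by
  rw [hypMap_def, Finset.sum_apply, Finset.sum_eq_single i]
  · have h1 : g (Sum.inl i) ≠ g (Sum.inr i) := fun h => by simpa using hg h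
    simp [hypVec_apply, h1]
  · intro j _ hji
    have h1 : g (Sum.inl i) ≠ g (Sum.inl j) := fun h => hji (by simpa using (hg h).symm)
    have h2 : g (Sum.inl i) ≠ g (Sum.inr j) := fun h => by simpa using hg h
    simp [hypVec_apply, h1, h2]
  · intro h
    exact absurd (Finset.mem_univ _) h

theorem hypMap_apply_inr {n k : ℕ} (g : Fin k ⊕ Fin k → Fin n) (hg : Function.Injective g)
    (μ : F) (c : Fin k → F) (i : Fin k) : hypMap g μ c (g (Sum.inr i)) = μ * c i := by
  rw [hypMap_def, Finset.sum_apply, Finset.sum_eq_single i]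
  · have h1 : g (Sum.inr i) ≠ g (Sum.inl i) := fun h => by simpa using hg h
    simp [hypVec_apply, h1, mul_comm]
  · intro j _ hji
    have h1 : g (Sum.inr i) ≠ g (Sum.inr j) := fun h => hji (by simpa using (hg h).symm)
    have h2 : g (Sum.inr i) ≠ g (Sum.inl j) := fun h => by simpa using hg h
    simp [hypVec_apply, h1, h2]
  · intro h
    exact absurd (Finset.mem_univ _) h

theorem hypMap_apply_not {n k : ℕ} (g : Fin k ⊕ Fin k → Fin n) (μ : F) (c : Fin k → F)
    (j : Fin n) (hj : ∀ s, g s ≠ j) : hypMap g μ c j = 0 := by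
  rw [hypMap_def, Finset.sum_apply]
  apply Finset.sum_eq_zero
  intro i _
  have h1 : j ≠ g (Sum.inl i) := fun h => hj _ h.symm
  have h2 : j ≠ g (Sum.inr i) := fun h => hj _ h.symm
  simp [hypVec_apply, h1, h2]

theorem hypMap_herm (hF : Fintype.card F = q ^ 2) {n k : ℕ} (g : Fin k ⊕ Fin k → Fin n)
    (hg : Function.Injective g) (μ : F) (hμ : μ ^ (q + 1) = -1) (c d : Fin k → F) :
    Cfsg.hermForm n F q (hypMap g μ c) (hypMap g μ d) = 0 := by
  have h1 : ∀ (j : Fin k) (c : Fin k → F), hypMap g μ c ∈ rightKer hF n (hypVec g μ j) := by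
    intro j c
    rw [hypMap_def]
    apply Submodule.sum_mem
    intro i _
    apply Submodule.smul_mem
    rw [mem_rightKer]
    exact hypVec_herm hF g hg μ hμ j i
  have h2 : ∀ j, hypVec g μ j ∈ rightKer hF n (hypMap g μ c) := by
    intro j
    rw [mem_rightKer, ← herm_conj hF, (mem_rightKer hF n _ _).mp (h1 j c)]
    exact conj_zero hF
  rw [← mem_rightKer hF, hypMap_def g μ d]
  exact Submodule.sum_mem _ (fun i _ => Submodule.smul_mem _ _ (h2 i))

end

/-- **[HYP]** -/
theorem pkgHyp : PkgHyp.{u} := by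
  intro F _ _ q n k W hF hW hfr
  classical
  have hq2 := two_le_q hF
  have hq0 : q ≠ 0 := by omega
  have hW' : ∀ u ∈ W, (∀ v ∈ W, Cfsg.hermForm n F q u v = 0) → u = 0 := by
    intro u hu h
    by_contra hu0
    obtain ⟨v, hv, hne⟩ := hW u hu hu0
    exact hne (h v hv)
  obtain ⟨T, S, hT, hTW⟩ := exists_normal_form hF n W hW'
  have hTinj := isHermIso_injective hF hT
  have hTu : IsUnit T.det := (Matrix.isUnit_iff_isUnit_det T).mp (isHermIso_isUnit hF hT)
  have hcard : 2 * k ≤ S.card := by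
    let R : W →ₗ[F] (S → F) :=
      { toFun := fun u s => (T *ᵥ (u : Fin n → F)) s
        map_add' := by
          intro u v
          funext s
          simp [Matrix.mulVec_add]
        map_smul' := by
          intro c u
          funext s
          simp [Matrix.mulVec_smul] }
    have hRinj : Function.Injective R := by
      rw [← LinearMap.ker_eq_bot, LinearMap.ker_eq_bot']
      intro u hu
      apply Subtype.ext
      apply hTinj
      rw [Submodule.coe_zero, Matrix.mulVec_zero]
      funext i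
      by_cases hi : i ∈ S
      · exact congrFun hu ⟨i, hi⟩
      · exact (hTW u).mp u.2 i hi
    have h := LinearMap.finrank_le_finrank_of_injective hRinj
    rw [hfr, Module.finrank_fintype_fun_eq_card, Fintype.card_coe] at h
    exact h
  have hemb : Nonempty ((Fin k ⊕ Fin k) ↪ S) := by
    apply Function.Embedding.nonempty_of_card_le
    simp only [Fintype.card_sum, Fintype.card_fin, Fintype.card_coe]
    omega
  obtain ⟨emb⟩ := hemb
  let g : Fin k ⊕ Fin k → Fin n := fun s => (emb s : Fin n)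
  have hg : Function.Injective g := fun a b h => emb.injective (Subtype.ext h)
  have hgS : ∀ s, g s ∈ S := fun s => (emb s).2
  have hneg : ((-1 : F)) ^ q = -1 := by rw [conj_neg hF, one_pow]
  have hcardN := norm_fiber_card hF (-1 : F) (neg_ne_zero.mpr one_ne_zero) hneg
  have hnt : Nontrivial {x : F // x ^ (q + 1) = -1} := by
    rw [← Finite.one_lt_card_iff_nontrivial, hcardN]
    omega
  obtain ⟨⟨l, hl⟩, ⟨l', hl'⟩, hne⟩ := exists_pair_ne {x : F // x ^ (q + 1) = -1}
  have hll : l ≠ l' := fun h => hne (Subtype.ext h)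
  let M : F → (Fin k → F) →ₗ[F] (Fin n → F) := fun μ => (Matrix.toLin' T⁻¹).comp (hypMap g μ)
  have hTM : ∀ μ c, T *ᵥ (M μ c) = hypMap g μ c := by
    intro μ c
    simp only [M, LinearMap.comp_apply, Matrix.toLin'_apply]
    rw [Matrix.mulVec_mulVec, Matrix.mul_nonsing_inv T hTu, Matrix.one_mulVec]
  have hMinj : ∀ μ, Function.Injective (M μ) := by
    intro μ
    rw [← LinearMap.ker_eq_bot, LinearMap.ker_eq_bot']
    intro c hc
    have h1 := hTM μ c
    rw [hc, Matrix.mulVec_zero] at h1
    funext i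
    have h2 := congrFun h1 (g (Sum.inl i))
    rw [hypMap_apply_inl g hg] at h2
    exact h2.symm
  have hMW : ∀ μ, LinearMap.range (M μ) ≤ W := by
    rintro μ _ ⟨c, rfl⟩
    rw [hTW]
    intro i hi
    rw [hTM]
    exact hypMap_apply_not g μ c i (fun s hs => hi (hs ▸ hgS s))
  have hMts : ∀ μ, μ ^ (q + 1) = -1 →
      Cfsg.Geo.IsTotallySingularFor (Cfsg.hermForm n F q) (LinearMap.range (M μ)) := by
    rintro μ hμ _ ⟨c, rfl⟩ _ ⟨d, rfl⟩
    rw [← hT, hTM, hTM]
    exact hypMap_herm hF g hg μ hμ c d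
  have hMfr : ∀ μ, Module.finrank F (LinearMap.range (M μ)) = k := by
    intro μ
    rw [LinearMap.finrank_range_of_inj (hMinj μ), Module.finrank_fin_fun]
  refine ⟨LinearMap.range (M l), LinearMap.range (M l'), hMW l, hMW l', hMts l hl, hMts l' hl',
    hMfr l, hMfr l', ?_⟩
  rw [Submodule.disjoint_def]
  rintro x ⟨c, rfl⟩ ⟨d, hd⟩
  have h1 : hypMap g l c = hypMap g l' d := by rw [← hTM, ← hTM, hd]
  have hc : c = 0 := by
    funext i
    have ha := congrFun h1 (g (Sum.inl i))
    have hb := congrFun h1 (g (Sum.inr i))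
    rw [hypMap_apply_inl g hg, hypMap_apply_inl g hg] at ha
    rw [hypMap_apply_inr g hg, hypMap_apply_inr g hg, ← ha] at hb
    have h3 : (l - l') * c i = 0 := by linear_combination hb
    rcases mul_eq_zero.mp h3 with h | h
    · exact absurd (sub_eq_zero.mp h) hll
    · exact h
  rw [hc, map_zero]

end Cfsg.Agent.Lib.Helper27.UPair
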